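import Cfsg.Agent.H86.AMat
import Cfsg.Agent.H4.MaxClass
import Cfsg.Agent.H44.Cores
import Cfsg.Agent.S4476
import Cfsg.Agent.H87.AlgBlock
import Cfsg.Agent.H33.Height

/-! # Landau's theorem; groups with one block; four-groups with bounded centralisers -/

set_option autoImplicit false
open Cfsg Subgroup

namespace Cfsg.Agent.H33

universe u

/-- Sums of boundedly many unit fractions with given value have bounded denominators. -/
theorem landau_aux (k : ℕ) : ∀ r : ℚ, ∃ N : ℕ, ∀ (ι : Type u) (s : Finset ι) (f : ι → ℕ),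
    s.card ≤ k → (∀ i ∈ s, 0 < f i) → ∑ i ∈ s, (f i : ℚ)⁻¹ = r → ∀ i ∈ s, f i ≤ N := by
  classical
  induction k with
  | zero =>
    refine fun r => ⟨0, fun ι s f hs _ _ i hi => ?_⟩
    rw [Finset.card_eq_zero.1 (Nat.le_zero.1 hs)] at hi
    exact (Finset.notMem_empty i hi).elim
  | succ k ih =>
    choose N hN using ih
    refine fun r => ⟨max ⌈(k + 1) / r⌉₊ ((Finset.range (⌈(k + 1) / r⌉₊ + 1)).sup
      fun n => N (r - (n : ℚ)⁻¹)), fun ι s f hs hf hr j hj => ?_⟩
    obtain ⟨i, hi, hmin⟩ := s.exists_min_image f ⟨j, hj⟩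
    have h0 : (0 : ℚ) < f i := Nat.cast_pos.2 (hf i hi)
    have h1 : 0 < r := hr ▸ Finset.sum_pos (fun l hl => inv_pos.2 (Nat.cast_pos.2 (hf l hl))) ⟨j, hj⟩
    have h2 : r ≤ (k + 1) * (f i : ℚ)⁻¹ := by
      rw [← hr]
      refine (Finset.sum_le_card_nsmul s _ _ fun l hl =>
        inv_anti₀ h0 (Nat.cast_le.2 (hmin l hl))).trans ?_
      rw [nsmul_eq_mul]
      exact mul_le_mul_of_nonneg_right (by exact_mod_cast hs) (inv_pos.2 h0).le
    have h3 : f i ≤ ⌈(k + 1) / r⌉₊ := by
      refine Nat.cast_le (α := ℚ).1 (le_trans ?_ (Nat.le_ceil _))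
      rw [le_div_iff₀ h1, mul_comm, ← le_div_iff₀ h0, div_eq_mul_inv]
      exact h2
    by_cases hji : j = i
    · exact hji ▸ h3.trans (le_max_left _ _)
    · refine le_trans ?_ ((Finset.le_sup (f := fun n : ℕ => N (r - (n : ℚ)⁻¹))
        (Finset.mem_range.2 (Nat.lt_succ_of_le h3))).trans (le_max_right _ _))
      refine hN _ ι (s.erase i) f ?_ (fun l hl => hf l (Finset.mem_of_mem_erase hl)) ?_ j
        (Finset.mem_erase.2 ⟨hji, hj⟩)
      · rw [Finset.card_erase_of_mem hi]
        omega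
      · rw [← hr, ← Finset.add_sum_erase s _ hi, add_sub_cancel_left]

/-- **Landau's theorem**: the order of a finite group is bounded in terms of its class number. -/
theorem landau (k : ℕ) : ∃ N : ℕ, ∀ (G : Type u) [Group G] [Finite G],
    Nat.card (ConjClasses G) ≤ k → Nat.card G ≤ N := by
  classical
  obtain ⟨N, hN⟩ := landau_aux.{u} k 1
  refine ⟨N, fun G _ _ hk => ?_⟩
  have := Fintype.ofFinite G
  have h0 : (Nat.card G : ℚ) ≠ 0 := Nat.cast_ne_zero.2 Nat.card_pos.ne'
  have := hN (ConjClasses G) Finset.univ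
    (fun c => Nat.card (centralizer ({(Quotient.out c : G)} : Set G)))
    (by rwa [Finset.card_univ, ← Nat.card_eq_fintype_card]) (fun _ _ => Nat.card_pos) (by
      refine mul_left_cancel₀ h0 ?_
      rw [mul_one, Finset.mul_sum]
      conv_rhs => rw [Nat.card_eq_fintype_card, ← Finset.card_univ, Finset.card_eq_sum_card_fiberwise
        (f := ConjClasses.mk) (t := Finset.univ) fun _ _ => Finset.mem_coe.2 (Finset.mem_univ _),
        Nat.cast_sum]
      refine Finset.sum_congr rfl fun c _ => ?_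
      rw [← card_mul_index (centralizer ({(Quotient.out c : G)} : Set G)), Nat.cast_mul,
        mul_comm, inv_mul_cancel_left₀ (Nat.cast_ne_zero.2 Nat.card_pos.ne'),
        ← H5.card_filter_isConj]
      refine congrArg _ (congrArg _ (Finset.filter_congr fun g _ => ?_))
      rw [← ConjClasses.mk_eq_mk_iff_isConj, eq_comm]
      exact Eq.congr_right (Quotient.out_eq c)) (ConjClasses.mk 1) (Finset.mem_univ _)
  rwa [isConj_one_left.1 (H32.isConj_out (1 : G)), (eq_top_iff (a := centralizer {1})).2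
    fun g _ => mem_centralizer_singleton_iff.2 (by simp), card_top] at this

/-- A group with a single `p`-block has order bounded in terms of its Sylow `p`-subgroups. -/
theorem card_le_of_one_block (p a : ℕ) : ∃ N : ℕ, ∀ (G : Type u) [Group G] [Finite G]
    (M : Ideal AlgInt), IsPModular p M → (Nat.card G).factorization p ≤ a →
    (∀ B : Set (IrrCharacter G), IsPBlock M B → B = principalBlock M G) → Nat.card G ≤ N := by
  obtain ⟨N, hN⟩ := landau.{u} (p ^ (2 * a) + 4)
  refine ⟨N, fun G _ _ M hM ha hB => hN G ?_⟩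
  have := hM.2.1
  have := Fintype.ofFinite G
  have h1 := H86.brauer_feit hM (H32.isPBlock_principalBlock (G := G))
  have h2 : p ^ (2 * blockDefect p (principalBlock M G)) ≤ p ^ (2 * a) :=
    Nat.pow_le_pow_right hM.1.pos (by rw [blockDefect_eq]; omega)
  have h3 : Nat.card (principalBlock M G) = Nat.card (ConjClasses G) := by
    rw [Set.eq_univ_of_forall (s := principalBlock M G) fun χ =>
      hB _ (H32.isPBlock_blockOf χ) ▸ H32.mem_blockOf_self χ, Nat.card_univ, H5.card_irrCharacter]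
  omega

variable {G : Type u} [Group G]

theorem exists_conj_of_odd {a b : G} (ha : a * a = 1) (hb : b * b = 1)
    (h : Odd (orderOf (a * b))) :
    ∃ k, (a * b) ^ (2 * k + 1) = 1 ∧ (a * b) ^ k * a * ((a * b) ^ k)⁻¹ = b ∧
      (a * b) ^ k * a * ((a * b) ^ k * a) = 1 := by
  obtain ⟨k, hk⟩ := h
  have h1 : (a * b) ^ (2 * k + 1) = 1 := hk ▸ pow_orderOf_eq_one _
  have ha' : a⁻¹ = a := inv_eq_of_mul_eq_one_right ha
  have h2 : a * (a * b) ^ k * a⁻¹ = ((a * b) ^ k)⁻¹ := by
    rw [← conj_pow, ← inv_pow, mul_inv_rev, inv_eq_of_mul_eq_one_right hb, ← mul_assoc, ha, one_mul]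
  refine ⟨k, h1, ?_, ?_⟩
  · have h3 : (a * b) ^ k * (a * b) ^ k * (a * b) = 1 := by rw [← h1, pow_succ, two_mul, pow_add]
    rw [← h2, ← mul_assoc, ← mul_assoc, mul_assoc _ a a, ha, mul_one,
      eq_inv_of_mul_eq_one_left h3, mul_inv_rev, ha', mul_assoc, ha, mul_one,
      inv_eq_of_mul_eq_one_right hb]
  · rw [mul_assoc, ← mul_assoc a, ← mul_inv_cancel (_ ^ k), ← h2, ha']

theorem exists_mid {s b : G} (hs : s * s = 1) (hb : b * b = 1)
    (h : Odd (orderOf (s * (b * s * b⁻¹)))) : ∃ k, (s * (b * s * b⁻¹)) ^ k * s *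
      ((s * (b * s * b⁻¹)) ^ k * s) = 1 ∧ (s * (b * s * b⁻¹)) ^ k * s * b =
      b * ((s * (b * s * b⁻¹)) ^ k * s) ∧ s * ((s * (b * s * b⁻¹)) ^ k * s * b) =
      (s * (b * s * b⁻¹)) ^ k * s * b * s := by
  have hb' : b⁻¹ = b := inv_eq_of_mul_eq_one_right hb
  have hs3 : b * s * b⁻¹ * (b * s * b⁻¹) = 1 := by rw [conj_mul, hs, mul_one, mul_inv_cancel]
  obtain ⟨k, e1, e2, e3⟩ := exists_conj_of_odd hs hs3 h
  have e4 : b * (s * (b * s * b⁻¹)) * b⁻¹ = (s * (b * s * b⁻¹))⁻¹ := by
    rw [mul_inv_rev, inv_eq_of_mul_eq_one_right hs, inv_eq_of_mul_eq_one_right hs3, hb']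
    simp only [mul_assoc, hb, mul_one]
  have e5 : b * s * b⁻¹ = (s * (b * s * b⁻¹))⁻¹ * s := by
    rw [mul_inv_rev, inv_eq_of_mul_eq_one_right hs, inv_eq_of_mul_eq_one_right hs3,
      mul_assoc _ s s, hs, mul_one]
  refine ⟨k, e3, ?_⟩
  generalize s * (b * s * b⁻¹) = u at e1 e2 e3 e4 e5
  have e6 : b * (u ^ k * s) * b⁻¹ = u ^ k * s := by
    rw [← conj_mul, ← conj_pow, e4, e5, ← mul_assoc, ← pow_succ, inv_pow,
      inv_eq_of_mul_eq_one_right (show u ^ (k + 1) * u ^ k = 1 by
        rw [← pow_add, ← e1]; congr 1; ring)]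
  have e9 : u ^ k * s * s * (u ^ k * s)⁻¹ = b * s * b⁻¹ := by
    rw [← e2]
    group
  generalize u ^ k * s = m at e3 e6 e9
  have e7 : m * b = b * m := (mul_inv_eq_iff_eq_mul.1 e6).symm
  refine ⟨e7, ?_⟩
  calc s * (m * b) = m⁻¹ * (m * s * m⁻¹) * (m * m) * b := by group
    _ = m * b * s := by
      rw [e9, e3, inv_eq_of_mul_eq_one_right e3]
      group

variable [Finite G]

theorem index_centralizer_le_card {s : Subgroup G} [s.Normal] {t : G} (ht : t ∈ s) :
    (centralizer ({t} : Set G)).index ≤ Nat.card s := by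
  classical
  have := Fintype.ofFinite G
  rw [← H5.card_filter_isConj, Nat.card_eq_fintype_card, Fintype.card_subtype]
  refine Finset.card_le_card fun g hg => ?_
  obtain ⟨c, rfl⟩ := isConj_iff.1 (Finset.mem_filter.1 hg).2
  exact Finset.mem_filter.2 ⟨Finset.mem_univ _, Normal.conj_mem inferInstance _ ht c⟩

theorem card_centralizer_of_isConj {a b : G} (h : IsConj a b) :
    Nat.card (centralizer ({b} : Set G)) = Nat.card (centralizer ({a} : Set G)) := by
  obtain ⟨c, rfl⟩ := isConj_iff.1 h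
  rw [← H87.cjS_centralizer_singleton, H87.card_cjS]

/-- An odd order normal subgroup is bounded by the centralisers of the involutions of a
four-group. -/
theorem card_le_of_odd {O : Subgroup G} [hO : O.Normal] (hodd : Odd (Nat.card O)) {N : ℕ}
    {a b : G} (ha : a * a = 1) (hb : b * b = 1) (hab : a * b = b * a)
    (h1 : Nat.card (centralizer ({a} : Set G)) ≤ N) (h2 : Nat.card (centralizer ({b} : Set G)) ≤ N)
    (h3 : Nat.card (centralizer ({a * b} : Set G)) ≤ N) : Nat.card O ≤ N ^ 3 := by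
  classical
  have := Fintype.ofFinite G
  have hc : ∀ g : G, (Finset.univ.filter (· ∈ centralizer ({g} : Set G))).card =
      Nat.card (centralizer ({g} : Set G)) := fun g => by
    rw [Nat.card_eq_fintype_card, Fintype.card_subtype]
  have ho : ∀ x : G, (x : G ⧸ O) = 1 → Odd (orderOf x) := fun x hx =>
    hodd.of_dvd_nat (O.orderOf_dvd_natCard ((QuotientGroup.eq_one_iff x).1 hx))
  have hb' : b⁻¹ = b := inv_eq_of_mul_eq_one_right hb
  have hq : ∀ {x y : G}, x * y = 1 → (x : G ⧸ O) * y = 1 := fun h => by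
    rw [← QuotientGroup.mk_mul, h, QuotientGroup.mk_one]
  have hab2 : a * b * (a * b) = 1 := by
    rw [mul_assoc, ← mul_assoc b, ← hab, mul_assoc, hb, mul_one, ha]
  rw [Nat.card_eq_fintype_card, Fintype.card_subtype, pow_succ', pow_two]
  refine Finset.card_le_mul_card_image_of_maps_to (f := fun o => o * a * o⁻¹)
    (t := (Finset.univ.filter fun m => m ∈ centralizer ({b} : Set G) ∧ IsConj (m * b) (a * b)).biUnion
      fun m => Finset.univ.filter (· ∈ centralizer ({m * b} : Set G))) (fun o ho' => ?_) N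
      (fun s _ => ?_) |>.trans (Nat.mul_le_mul_left _ ?_)
  · have ho1 : (o : G ⧸ O) = 1 := (QuotientGroup.eq_one_iff o).2 (Finset.mem_filter.1 ho').2
    obtain ⟨s, hs⟩ : ∃ s, o * a * o⁻¹ = s := ⟨_, rfl⟩
    have hs1 : s * s = 1 := by rw [← hs, conj_mul, ha, mul_one, mul_inv_cancel]
    have hs2 : (s : G ⧸ O) = a := by simp [← hs, ho1]
    have hu : ((s * (b * s * b⁻¹) : G) : G ⧸ O) = 1 := by
      rw [hb', ← mul_assoc, ← mul_assoc, mul_assoc _ s b, QuotientGroup.mk_mul,
        QuotientGroup.mk_mul, hs2, ← QuotientGroup.mk_mul, hq hab2]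
    obtain ⟨k, e1, e2, e3⟩ := exists_mid hs1 hb (ho _ hu)
    have hm : (((s * (b * s * b⁻¹)) ^ k * s : G) : G ⧸ O) = a := by
      rw [QuotientGroup.mk_mul, QuotientGroup.mk_pow, hu, one_pow, one_mul, hs2]
    generalize (s * (b * s * b⁻¹)) ^ k * s = m at e1 e2 e3 hm
    simp only [hs]
    refine Finset.mem_biUnion.2 ⟨m, Finset.mem_filter.2 ⟨Finset.mem_univ _,
      mem_centralizer_singleton_iff.2 e2, ?_⟩, Finset.mem_filter.2 ⟨Finset.mem_univ _,
      mem_centralizer_singleton_iff.2 e3⟩⟩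
    obtain ⟨j, -, hj, -⟩ := exists_conj_of_odd (a := m * b) (by
      rw [mul_assoc, ← mul_assoc b, ← e2, mul_assoc m b, hb, mul_one, e1]) hab2 (ho _ (by
        rw [QuotientGroup.mk_mul, QuotientGroup.mk_mul, hm, ← QuotientGroup.mk_mul, hq hab2]))
    exact isConj_iff.2 ⟨_, hj⟩
  · rcases (Finset.filter (fun o => o * a * o⁻¹ = s)
      (Finset.univ.filter (· ∈ O))).eq_empty_or_nonempty with h | ⟨o, ho'⟩
    · rw [h]
      exact Nat.zero_le _
    · refine le_trans (Finset.card_le_card_of_injOn (fun x => o⁻¹ * x) (fun x hx => ?_)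
        fun x _ y _ h => mul_left_cancel h) ((hc a).trans_le h1)
      refine Finset.mem_coe.2 (Finset.mem_filter.2 ⟨Finset.mem_univ _,
        mem_centralizer_singleton_iff.2 ?_⟩)
      have := (Finset.mem_filter.1 hx).2.trans (Finset.mem_filter.1 ho').2.symm
      calc o⁻¹ * x * a = o⁻¹ * (x * a * x⁻¹) * x := by group
        _ = a * (o⁻¹ * x) := by rw [this]; group
  · refine (Finset.card_biUnion_le_card_mul _ _ N fun m hm => ?_).trans (Nat.mul_le_mul_right _ ?_)
    · rw [hc, ← card_centralizer_of_isConj (Finset.mem_filter.1 hm).2.2]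
      exact h3
    · exact (Finset.card_le_card fun m hm => Finset.mem_filter.2
        ⟨Finset.mem_univ _, (Finset.mem_filter.1 hm).2.1⟩).trans ((hc b).trans_le h2)

/-- A four-group all of whose involutions have centralisers of order at most `N`. -/
structure Four (N : ℕ) (a b : G) : Prop where
  ha : a * a = 1
  hb : b * b = 1
  hab : a * b = b * a
  a1 : a ≠ 1
  b1 : b ≠ 1
  ab1 : a * b ≠ 1
  ca : Nat.card (centralizer ({a} : Set G)) ≤ N
  cb : Nat.card (centralizer ({b} : Set G)) ≤ N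
  cab : Nat.card (centralizer ({a * b} : Set G)) ≤ N

theorem Four.quotient {N : ℕ} {a b : G} (h : Four N a b) (X : Subgroup G) [X.Normal] (ha : a ∉ X)
    (hb : b ∉ X) (hab : a * b ∉ X) : Four N (a : G ⧸ X) (b : G ⧸ X) where
  ha := congrArg (QuotientGroup.mk' X) h.ha
  hb := congrArg (QuotientGroup.mk' X) h.hb
  hab := congrArg (QuotientGroup.mk' X) h.hab
  a1 := fun e => ha ((QuotientGroup.eq_one_iff _).1 e)
  b1 := fun e => hb ((QuotientGroup.eq_one_iff _).1 e)
  ab1 := fun e => hab ((QuotientGroup.eq_one_iff _).1 e)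
  ca := (H4.card_centralizer_quotient_le X a).trans h.ca
  cb := (H4.card_centralizer_quotient_le X b).trans h.cb
  cab := (H4.card_centralizer_quotient_le X (a * b)).trans h.cab

theorem orderOf_eq_two {a : G} (ha : a * a = 1) (a1 : a ≠ 1) : orderOf a = 2 :=
  orderOf_eq_prime (by rwa [pow_two]) a1

theorem Four.mul_self {N : ℕ} {a b : G} (h : Four N a b) : a * b * (a * b) = 1 := by
  rw [mul_assoc, ← mul_assoc b, ← h.hab, mul_assoc, h.hb, mul_one, h.ha]

/-- Brauer–Fowler: a nontrivial normal subgroup of bounded order. -/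
theorem exists_normal_card_le {N n : ℕ} {a : G} (ha : a * a = 1) (a1 : a ≠ 1)
    (hN : Nat.card (centralizer ({a} : Set G)) ≤ N) (hn : (Nat.card G).factorization 2 ≤ n)
    (hO : pPrimeCore 2 G = ⊥) :
    ∃ X : Subgroup G, X.Normal ∧ X ≠ ⊥ ∧ Nat.card X ≤ 2 ^ n * (N ^ 2).factorial := by
  classical
  have := Fintype.ofFinite G
  have ho := orderOf_eq_two ha a1
  obtain ⟨⟨x, hx, h1⟩, -⟩ := S4476.result (G := G) (even_iff_two_dvd.2 (ho ▸ orderOf_dvd_natCard a))
    _ rfl
  have h2 : (centralizer ({a} : Set G)).index ≤ Nat.card {x : G // orderOf x = 2} := by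
    rw [← H5.card_filter_isConj, Nat.card_eq_fintype_card, Fintype.card_subtype]
    exact Finset.card_le_card fun g hg => Finset.mem_filter.2 ⟨Finset.mem_univ _,
      (orderOf_eq_of_isConj (Finset.mem_filter.1 hg).2).symm.trans ho⟩
  have h3 : Nat.card G ≤ N * Nat.card {x : G // orderOf x = 2} :=
    (card_mul_index _).symm.trans_le (Nat.mul_le_mul hN h2)
  have h4 : 0 < Nat.card {x : G // orderOf x = 2} :=
    (Nat.pos_of_ne_zero index_ne_zero_of_finite).trans_le h2
  have h5 : (centralizer ({x} : Set G)).index ≤ N ^ 2 := by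
    refine Nat.cast_le (α := ℚ).1 (h1.trans ?_)
    rw [Nat.cast_pow]
    refine pow_le_pow_left₀ (div_nonneg (sub_nonneg.2 (Nat.one_le_cast.2 Nat.card_pos))
      (Nat.cast_nonneg _)) ?_ 2
    rw [div_le_iff₀ (Nat.cast_pos.2 h4)]
    exact (sub_le_self _ zero_le_one).trans (by exact_mod_cast h3)
  let K := (centralizer ({x} : Set G)).normalCore
  have h6 : K.index ≤ (N ^ 2).factorial := by
    refine (Nat.le_of_dvd (Nat.factorial_pos _) ?_).trans (Nat.factorial_le h5)
    simp only [K]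
    rw [normalCore_eq_ker, index_ker, index_eq_card, ← Nat.card_perm]
    exact card_subgroup_dvd_card (MulAction.toPermHom G (G ⧸ _)).range
  let X := normalClosure ({x} : Set G)
  have h7 : X ≤ centralizer (K : Set G) := normalClosure_le_normal (Set.singleton_subset_iff.2
    fun k hk => mem_centralizer_singleton_iff.1 (normalCore_le _ hk))
  have : IsMulCommutative (X ⊓ K : Subgroup G) :=
    ⟨⟨fun y z => Subtype.ext (h7 z.2.1 y y.2.2)⟩⟩
  have h8 : X ⊓ K ≤ pCore 2 G := H44.fitting_eq_pCore_of_pPrimeCore_eq_bot hO ▸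
    H44.le_fitting inferInstance (open scoped IsMulCommutative in CommGroup.isNilpotent)
  obtain ⟨m, hm⟩ := IsPGroup.iff_card.1 ((H44.pCore_isPGroup (p := 2) (G := G)).to_le h8)
  have h9 : Nat.card (X ⊓ K : Subgroup G) ≤ 2 ^ n := by
    rw [hm]
    refine Nat.pow_le_pow_right two_pos (le_trans ?_ hn)
    exact (Nat.prime_two.pow_dvd_iff_le_factorization Nat.card_pos.ne').1
      (hm ▸ card_subgroup_dvd_card _)
  refine ⟨X, inferInstance, fun h => hx (mem_bot.1 (h ▸ subset_normalClosure rfl)), ?_⟩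
  rw [← H2.card_inf_mul_relIndex K X, inf_comm]
  exact Nat.mul_le_mul h9 ((Nat.le_of_dvd (Nat.pos_of_ne_zero index_ne_zero_of_finite)
    (relIndex_dvd_index_of_normal K X)).trans h6)

/-- The order of a group is bounded in terms of its Sylow `2`-subgroups and the centralisers of
the involutions of a four-subgroup. -/
theorem card_le_of_four (N n : ℕ) : ∃ F : ℕ, ∀ (G : Type u) [Group G] [Finite G] (a b : G),
    (Nat.card G).factorization 2 ≤ n → Four N a b → Nat.card G ≤ F := by
  induction n with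
  | zero =>
    refine ⟨0, fun G _ _ a b hn h => ?_⟩
    have := Nat.prime_two.factorization_pos_of_dvd Nat.card_pos.ne'
      (orderOf_eq_two h.ha h.a1 ▸ orderOf_dvd_natCard a)
    omega
  | succ n ih =>
    obtain ⟨F, hF⟩ := ih
    have key : ∀ (G : Type u) [Group G] [Finite G] (a b : G), pPrimeCore 2 G = ⊥ →
        (Nat.card G).factorization 2 ≤ n + 1 → Four N a b →
        Nat.card G ≤ max N F * (2 ^ (n + 1) * (N ^ 2).factorial) := fun G _ _ a b hO hn h => by
      obtain ⟨X, hX, hX0, hXc⟩ := exists_normal_card_le h.ha h.a1 h.ca hn hO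
      have h1 : ∀ t ∈ X, Nat.card (centralizer ({t} : Set G)) ≤ N →
          Nat.card G ≤ max N F * (2 ^ (n + 1) * (N ^ 2).factorial) := fun t ht hc =>
        (card_mul_index _).symm.trans_le (Nat.mul_le_mul (hc.trans (le_max_left _ _))
          ((index_centralizer_le_card ht).trans hXc))
      by_cases ha : a ∈ X
      · exact h1 _ ha h.ca
      by_cases hb : b ∈ X
      · exact h1 _ hb h.cb
      by_cases hab : a * b ∈ X
      · exact h1 _ hab h.cab
      have h2 := factorization_index_add_card (p := 2) X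
      have h3 : 0 < (Nat.card X).factorization 2 :=
        Nat.prime_two.factorization_pos_of_dvd Nat.card_pos.ne' (by
          by_contra h3
          exact hX0 (le_bot_iff.1 (hO ▸ H44.le_pPrimeCore hX (H44.coprime_iff_not_dvd.2 h3))))
      rw [card_eq_card_quotient_mul_card_subgroup X]
      exact Nat.mul_le_mul ((hF _ _ _ (by rw [← index_eq_card]; omega)
        (h.quotient X ha hb hab)).trans (le_max_right _ _)) hXc
    refine ⟨max N F * (2 ^ (n + 1) * (N ^ 2).factorial) * N ^ 3, fun G _ _ a b hn h => ?_⟩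
    have hodd : Odd (Nat.card (pPrimeCore 2 G)) := H44.coprime_two_iff_odd.1 H44.pPrimeCore_coprime
    have h1 : ∀ t : G, t * t = 1 → t ≠ 1 → t ∉ pPrimeCore 2 G := fun t ht t1 hO =>
      (Nat.not_odd_iff_even.2 even_two) (hodd.of_dvd_nat
        (orderOf_eq_two ht t1 ▸ (pPrimeCore 2 G).orderOf_dvd_natCard hO))
    have h2 := factorization_index_add_card (p := 2) (pPrimeCore 2 G)
    rw [card_eq_card_quotient_mul_card_subgroup (pPrimeCore 2 G)]
    exact Nat.mul_le_mul (key _ _ _ H44.pPrimeCore_quotient_pPrimeCore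
      (by rw [← index_eq_card]; omega) (h.quotient _ (h1 _ h.ha h.a1) (h1 _ h.hb h.b1)
        (h1 _ h.mul_self h.ab1))) (card_le_of_odd hodd h.ha h.hb h.hab h.ca h.cb h.cab)

end Cfsg.Agent.H33
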